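import Cfsg.Agent.H23.AutPSU.Main
import Cfsg.Agent.H97.M22.PointStab

/-!
The automorphism group of `PSU 4` over the field of four elements has at most 51840 elements.
-/

set_option autoImplicit false
set_option linter.unusedSectionVars false

namespace Cfsg.Agent.H97.M22

open Matrix Cfsg
open Cfsg.Agent.H17.UPoints Cfsg.Agent.H23.AutPSU

variable {F : Type} [Field F] [Fintype F] (hF : Fintype.card F = 4)
include hF

theorem center_SU_four : Subgroup.center ↥(Cfsg.SU 4 F 2) = ⊥ := by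
  refine Subgroup.eq_bot_of_card_eq _ ?_
  rw [H3.card_center_SU (cardSq hF) (by norm_num)]
  rfl

/-- `SU 4` is `PSU 4`. -/
theorem nonempty_SU_equiv_PSU : Nonempty (↥(Cfsg.SU 4 F 2) ≃* Cfsg.PSU 4 F 2) :=
  ⟨(QuotientGroup.quotientBot.symm).trans
    (QuotientGroup.quotientMulEquivOfEq (center_SU_four hF).symm)⟩

theorem simple_SU_four : IsSimpleGroup ↥(Cfsg.SU 4 F 2) := by
  obtain ⟨e⟩ := nonempty_SU_equiv_PSU hF
  haveI := H3.isSimpleGroup_PSU (cardSq hF) (by norm_num : 3 ≤ 4) (by norm_num)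
  exact e.isSimpleGroup

theorem exists_aut_ne : ∃ l : F, l ≠ 0 ∧ l ≠ 1 ∧ ∀ x : F, x = 0 ∨ x = 1 ∨ x = l ∨ x = l ^ 2 := by
  classical
  obtain ⟨l, hl0, hl1⟩ : ∃ l : F, l ≠ 0 ∧ l ≠ 1 := by
    by_contra hne
    push Not at hne
    have : Fintype.card F ≤ 2 := by
      calc Fintype.card F = (Finset.univ : Finset F).card := rfl
        _ ≤ ({0, 1} : Finset F).card := Finset.card_le_card fun x _ => by
            rcases eq_or_ne x 0 with h | h
            · simp [h]
            · simp [hne x h]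
        _ ≤ 2 := Finset.card_le_two
    omega
  refine ⟨l, hl0, hl1, fun x => ?_⟩
  rcases eq_or_ne x 0 with h | h
  · exact Or.inl h
  have hrel : 1 + l + l ^ 2 = 0 := by
    have h3 : (l - 1) * (1 + l + l ^ 2) = 0 := by linear_combination cube hF hl0
    exact (mul_eq_zero.1 h3).resolve_left (sub_ne_zero.2 hl1)
  have h3 : (x - 1) * ((x - l) * (x - l ^ 2)) = 0 := by
    linear_combination cube hF h + (x - x ^ 2) * hrel + (x - 1) * cube hF hl0
  rcases mul_eq_zero.1 h3 with h | h
  · exact Or.inr (Or.inl (sub_eq_zero.1 h))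
  rcases mul_eq_zero.1 h with h | h
  · exact Or.inr (Or.inr (Or.inl (sub_eq_zero.1 h)))
  · exact Or.inr (Or.inr (Or.inr (sub_eq_zero.1 h)))

theorem card_ringEquiv_le : Nat.card (F ≃+* F) ≤ 2 := by
  classical
  obtain ⟨l, hl0, hl1, hall⟩ := exists_aut_ne hF
  have himg : ∀ σ : F ≃+* F, σ l = l ∨ σ l = l ^ 2 := fun σ => by
    rcases hall (σ l) with h | h | h | h
    · exact absurd ((map_eq_zero_iff σ σ.injective).1 h) hl0
    · exact absurd (σ.injective (h.trans (map_one σ).symm)) hl1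
    · exact Or.inl h
    · exact Or.inr h
  have hinj : Function.Injective fun σ : F ≃+* F => decide (σ l = l) := by
    intro σ τ h
    simp only [decide_eq_decide] at h
    have hl : σ l = τ l := by
      rcases himg σ with h1 | h1
      · rw [h1, h.1 h1]
      · rcases himg τ with h2 | h2
        · rw [h.2 h2, h2]
        · rw [h1, h2]
    refine RingEquiv.ext fun x => ?_
    rcases hall x with rfl | rfl | rfl | rfl
    · rw [map_zero, map_zero]
    · rw [map_one, map_one]
    · exact hl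
    · rw [map_pow, map_pow, hl]
  refine (Nat.card_le_card_of_injective _ hinj).trans ?_
  simp

theorem card_center_GU_four : 3 ≤ Nat.card (Subgroup.center ↥(Cfsg.GU 4 F 2)) := by
  let f : Fˣ → Subgroup.center ↥(Cfsg.GU 4 F 2) := fun c =>
    ⟨H3.guDiag (fun _ => (c : F)) fun _ => by rw [pow_succ, pow_two]; exact cube hF c.ne_zero,
      H3.mem_center_GU_of_scalar _ (l := (c : F)) fun x =>
        funext fun i => Matrix.mulVec_diagonal _ _ _⟩
  have hf : Function.Injective f := fun c c' h => by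
    have h' := congrArg (fun g : Subgroup.center ↥(Cfsg.GU 4 F 2) =>
      (g.1.1 : Matrix (Fin 4) (Fin 4) F) 0 0) h
    refine Units.ext ?_
    simpa [f, H3.guDiag] using h'
  refine le_trans ?_ (Nat.card_le_card_of_injective f hf)
  classical
  rw [Nat.card_eq_fintype_card, Fintype.card_units, hF]

theorem card_aut_PSU_four_le : Nat.card (MulAut (Cfsg.PSU 4 F 2)) ≤ 51840 := by
  classical
  have hsurj : Function.Surjective
      (fun p : (↥(Cfsg.GU 4 F 2) ⧸ Subgroup.center ↥(Cfsg.GU 4 F 2)) × (F ≃+* F) =>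
        semiAut p.1.out p.2) := by
    intro α
    obtain ⟨g, σ, rfl⟩ := exists_semilinear (cardSq hF) (by norm_num : 3 ≤ 4) (by norm_num) α
    refine ⟨(g, σ), ?_⟩
    obtain ⟨z, hz⟩ := QuotientGroup.mk_out_eq_mul (Subgroup.center ↥(Cfsg.GU 4 F 2)) g
    show semiAut _ σ = semiAut g σ
    rw [hz, Subgroup.mem_center_iff.1 z.2 g,
      show semiAut ((z : ↥(Cfsg.GU 4 F 2)) * g) σ = semiAut (z : ↥(Cfsg.GU 4 F 2)) 1 * semiAut g σ by
        rw [semiAut_mul, guMap_one, one_mul],
      (semiAut_eq_one_iff (cardSq hF) (by norm_num : 3 ≤ 4)).2 ⟨rfl, z.2⟩, one_mul]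
  haveI : Finite (F ≃+* F) := Finite.of_injective (fun σ : F ≃+* F => (σ : F → F))
    fun σ τ h => RingEquiv.ext fun x => congrFun h x
  refine (Nat.card_le_card_of_surjective _ hsurj).trans ?_
  rw [Nat.card_prod]
  have h := (Subgroup.center ↥(Cfsg.GU 4 F 2)).card_mul_index
  rw [H3.card_GU (cardSq hF)] at h
  simp [Finset.prod_range_succ, Nat.even_iff] at h
  have h3 := card_center_GU_four hF
  rw [Nat.card_eq_fintype_card] at h3
  have h2 := card_ringEquiv_le hF
  have hq : Nat.card (↥(Cfsg.GU 4 F 2) ⧸ Subgroup.center ↥(Cfsg.GU 4 F 2)) ≤ 25920 := by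
    show (Subgroup.center ↥(Cfsg.GU 4 F 2)).index ≤ 25920
    nlinarith
  calc _ ≤ 25920 * 2 := Nat.mul_le_mul hq h2
    _ = 51840 := rfl

end Cfsg.Agent.H97.M22
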