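import Cfsg.Agent.S0288
import Cfsg.Agent.S0303
import Cfsg.Agent.H97.M22.AutFour

/-!
The orthogonal group of the elliptic form of dimension six over the field with two elements is the
automorphism group of `PSU 4` over the field with four elements.
-/

set_option autoImplicit false
set_option linter.unusedSectionVars false

namespace Cfsg.Agent.H97.M22

open Matrix Cfsg

/-- The elliptic form of dimension six over the field with two elements. -/
abbrev qSix : ((Fin 2 ⊕ Fin 2) ⊕ Fin 2 → ZMod 2) → ZMod 2 :=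
  Cfsg.quadFormMinus 2 (ZMod 2) 1 1

/-- The orthogonal group. -/
abbrev OSix : Type := ↥(Cfsg.isometryGroup (ZMod 2) qSix)

theorem aniso_two : ∀ z₁ z₂ : ZMod 2, z₁ ^ 2 + 1 * z₁ * z₂ + 1 * z₂ ^ 2 = 0 → z₁ = 0 ∧ z₂ = 0 := by
  decide

theorem card_OSix : Nat.card OSix = 51840 := by
  have h := S0288.result (F := ZMod 2) (ZMod.card 2) 3 (by norm_num) 1 1 aniso_two
  simp [Finset.prod_range_succ] at h
  exact h

theorem qSix_eq : (⇑(H5.qMinus 2 (ZMod 2) 1 1)) = qSix := H5.coe_qMinus 2 1 1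

theorem polar_self (x : (Fin 2 ⊕ Fin 2) ⊕ Fin 2 → ZMod 2) :
    QuadraticMap.polarBilin (H5.qMinus 2 (ZMod 2) 1 1) x x = 0 := by
  have h2 : (2 : ZMod 2) = 0 := rfl
  rw [QuadraticMap.polarBilin_apply_apply, QuadraticMap.polar_self, two_nsmul, ← two_mul, h2,
    zero_mul]

theorem exists_reflection {u : (Fin 2 ⊕ Fin 2) ⊕ Fin 2 → ZMod 2} (hu : qSix u = 1) :
    ∃ r : OSix, ∀ x, ((r : GL ((Fin 2 ⊕ Fin 2) ⊕ Fin 2) (ZMod 2)) :
      Matrix _ _ (ZMod 2)) *ᵥ x = x + QuadraticMap.polarBilin (H5.qMinus 2 (ZMod 2) 1 1) x u • u := by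
  obtain ⟨Q, hQ⟩ : ∃ Q, Q = H5.qMinus 2 (ZMod 2) 1 1 := ⟨_, rfl⟩
  have hu' : Q u = 1 := by rw [hQ, qSix_eq]; exact hu
  let f : ((Fin 2 ⊕ Fin 2) ⊕ Fin 2 → ZMod 2) →ₗ[ZMod 2] ((Fin 2 ⊕ Fin 2) ⊕ Fin 2 → ZMod 2) :=
    { toFun := fun x => x + QuadraticMap.polarBilin Q x u • u
      map_add' := fun x y => by
        rw [map_add, LinearMap.add_apply, add_smul]; abel
      map_smul' := fun c x => by
        rw [map_smul, LinearMap.smul_apply, RingHom.id_apply, smul_add, smul_smul, smul_eq_mul] }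
  have hpu : ∀ x, QuadraticMap.polarBilin Q (f x) u = QuadraticMap.polarBilin Q x u := fun x => by
    show QuadraticMap.polarBilin Q (x + QuadraticMap.polarBilin Q x u • u) u = _
    rw [map_add, LinearMap.add_apply, map_smul, LinearMap.smul_apply, hQ, polar_self, smul_zero,
      add_zero]
  have hff : ∀ x, f (f x) = x := fun x => by
    show f x + QuadraticMap.polarBilin Q (f x) u • u = x
    rw [hpu]
    show x + QuadraticMap.polarBilin Q x u • u + QuadraticMap.polarBilin Q x u • u = x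
    have h2 : ∀ c : ZMod 2, c + c = 0 := by decide
    rw [add_assoc, ← add_smul, h2, zero_smul, add_zero]
  have hM : LinearMap.toMatrix' f * LinearMap.toMatrix' f = 1 := by
    rw [← LinearMap.toMatrix'_comp, show f.comp f = LinearMap.id from LinearMap.ext hff,
      LinearMap.toMatrix'_id]
  have hact : ∀ x, LinearMap.toMatrix' f *ᵥ x = f x := fun x => by
    rw [← Matrix.toLin'_apply, Matrix.toLin'_toMatrix']
  refine ⟨⟨⟨_, _, hM, hM⟩, fun x y => ?_⟩, fun x => ?_⟩
  · show qSix (LinearMap.toMatrix' f *ᵥ x) = qSix x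
    rw [hact, ← qSix_eq, ← hQ]
    show Q (x + QuadraticMap.polarBilin Q x u • u) = Q x
    rw [QuadraticMap.map_add (⇑Q), QuadraticMap.map_smul, hu', QuadraticMap.polar_smul_right,
      ← QuadraticMap.polarBilin_apply_apply]
    have h2 : ∀ c q : ZMod 2, q + c * c * 1 + c * c = q := by decide
    simp only [smul_eq_mul]
    exact h2 _ _
  · show LinearMap.toMatrix' f *ᵥ x = _
    rw [hact, ← hQ]
    rfl

theorem center_OSix {g : OSix} (hg : g ∈ Subgroup.center OSix) : g = 1 := by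
  obtain ⟨M, hM⟩ : ∃ M : Matrix ((Fin 2 ⊕ Fin 2) ⊕ Fin 2) ((Fin 2 ⊕ Fin 2) ⊕ Fin 2) (ZMod 2),
      M = ((g : GL ((Fin 2 ⊕ Fin 2) ⊕ Fin 2) (ZMod 2)) : Matrix _ _ (ZMod 2)) := ⟨_, rfl⟩
  obtain ⟨N, hN⟩ : ∃ N : Matrix ((Fin 2 ⊕ Fin 2) ⊕ Fin 2) ((Fin 2 ⊕ Fin 2) ⊕ Fin 2) (ZMod 2),
      N * M = 1 := ⟨(((g : GL ((Fin 2 ⊕ Fin 2) ⊕ Fin 2) (ZMod 2))⁻¹ :
        GL ((Fin 2 ⊕ Fin 2) ⊕ Fin 2) (ZMod 2)) : Matrix _ _ (ZMod 2)), by
      rw [hM, ← Units.val_mul, inv_mul_cancel, Units.val_one]⟩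
  have hinj : ∀ x, M *ᵥ x = 0 → x = 0 := fun x hx => by
    rw [← Matrix.one_mulVec x, ← hN, ← Matrix.mulVec_mulVec, hx, Matrix.mulVec_zero]
  have hfix : ∀ u, qSix u = 1 → M *ᵥ u = u := by
    intro u hu
    obtain ⟨r, hr⟩ := exists_reflection hu
    have hu0 : u ≠ 0 := by
      rintro rfl
      revert hu
      decide
    have hc : ∀ x, M *ᵥ (x + QuadraticMap.polarBilin (H5.qMinus 2 (ZMod 2) 1 1) x u • u) =
        M *ᵥ x + QuadraticMap.polarBilin (H5.qMinus 2 (ZMod 2) 1 1) (M *ᵥ x) u • u := fun x => by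
      rw [← hr, ← hr, Matrix.mulVec_mulVec, Matrix.mulVec_mulVec, hM, ← Units.val_mul,
        ← Units.val_mul, ← Subgroup.coe_mul, ← Subgroup.coe_mul, Subgroup.mem_center_iff.1 hg r]
    obtain ⟨x, hx⟩ : ∃ x, QuadraticMap.polarBilin (H5.qMinus 2 (ZMod 2) 1 1) x u ≠ 0 := by
      by_contra hne
      push Not at hne
      exact hu0 ((H5.qMinus_nondegenerate 2 aniso_two).2 u hne)
    have h01 : ∀ c : ZMod 2, c = 0 ∨ c = 1 := by decide
    have h1 := hc x
    rw [(h01 _).resolve_left hx, one_smul, Matrix.mulVec_add] at h1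
    have h2 := add_left_cancel h1
    rcases h01 (QuadraticMap.polarBilin (H5.qMinus 2 (ZMod 2) 1 1) (M *ᵥ x) u) with h | h
    · rw [h, zero_smul] at h2
      exact absurd (hinj u h2) hu0
    · rw [h, one_smul] at h2
      exact h2
  refine Subtype.ext (Units.ext (Matrix.ext_of_mulVec_single fun k => ?_))
  rw [← hM]
  show M *ᵥ _ = (1 : Matrix _ _ (ZMod 2)) *ᵥ _
  rw [Matrix.one_mulVec]
  have key : ∀ k : (Fin 2 ⊕ Fin 2) ⊕ Fin 2, qSix (Pi.single k 1) = 1 ∨
      qSix (Pi.single k 1 + Pi.single (.inr 0) 1) = 1 := by decide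
  have h0 : qSix (Pi.single (.inr 0 : (Fin 2 ⊕ Fin 2) ⊕ Fin 2) (1 : ZMod 2)) = 1 := by decide
  rcases key k with h | h
  · exact hfix _ h
  · have h' := hfix _ h
    rw [Matrix.mulVec_add, hfix _ h0] at h'
    exact add_right_cancel h'

/-- A group with trivial centre, twice as large as the simple top quotient of a normal subgroup,
embeds in the automorphisms of that quotient. -/
theorem exists_embedding {O S : Type*} [Group O] [Finite O] [Group S] (W : Subgroup O) [W.Normal]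
    (e : ↥W ⧸ Subgroup.center ↥W ≃* S) (hS : Subgroup.center S = ⊥)
    (hcard : Nat.card O = 2 * Nat.card S) (hO : ∀ g ∈ Subgroup.center O, g = 1) :
    ∃ f : O →* MulAut S, Function.Injective f := by
  have hconjc : ∀ g : O, (Subgroup.center ↥W).map
      (MulAut.conjNormal g : ↥W ≃* ↥W).toMonoidHom = Subgroup.center ↥W := by
    intro g
    ext y
    constructor
    · rintro ⟨x, hx, rfl⟩
      refine Subgroup.mem_center_iff.2 fun z => ?_
      obtain ⟨w, rfl⟩ := (MulAut.conjNormal g : ↥W ≃* ↥W).surjective z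
      show (MulAut.conjNormal g) w * (MulAut.conjNormal g) x =
        (MulAut.conjNormal g) x * (MulAut.conjNormal g) w
      rw [← map_mul, ← map_mul, Subgroup.mem_center_iff.1 hx w]
    · intro hy
      refine ⟨(MulAut.conjNormal g).symm y, Subgroup.mem_center_iff.2 fun z =>
        (MulAut.conjNormal g).injective ?_, (MulAut.conjNormal g).apply_symm_apply y⟩
      rw [map_mul, map_mul, MulEquiv.apply_symm_apply]
      exact Subgroup.mem_center_iff.1 hy _
  obtain ⟨ρ, hρ⟩ : ∃ ρ : O →* MulAut (↥W ⧸ Subgroup.center ↥W),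
      ∀ g (s : ↥W), ρ g (QuotientGroup.mk s) = QuotientGroup.mk (MulAut.conjNormal g s) :=
    ⟨MonoidHom.mk' (fun g => QuotientGroup.congr _ _ (MulAut.conjNormal g : ↥W ≃* ↥W) (hconjc g))
      (fun g g' => MulEquiv.ext fun x => by
        obtain ⟨s, rfl⟩ := QuotientGroup.mk_surjective x
        show QuotientGroup.mk (MulAut.conjNormal (g * g') s : ↥W) =
          QuotientGroup.mk (MulAut.conjNormal g (MulAut.conjNormal g' s) : ↥W)
        rw [map_mul]
        rfl), fun _ _ => rfl⟩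
  have hZq : Subgroup.center (↥W ⧸ Subgroup.center ↥W) = ⊥ := by
    rw [Subgroup.eq_bot_iff_forall]
    intro x hx
    refine e.injective ((Subgroup.mem_bot.1 (hS ▸ ?_)).trans (map_one e).symm)
    refine Subgroup.mem_center_iff.2 fun y => ?_
    obtain ⟨z, rfl⟩ := e.surjective y
    rw [← map_mul, ← map_mul, Subgroup.mem_center_iff.1 hx z]
  have hker : ∀ g : ↥W, ρ g = 1 → g ∈ Subgroup.center ↥W := by
    intro g hg
    refine (QuotientGroup.eq_one_iff g).1 (Subgroup.mem_bot.1 (hZq ▸ ?_))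
    refine Subgroup.mem_center_iff.2 fun x => ?_
    obtain ⟨s, rfl⟩ := QuotientGroup.mk_surjective x
    have h := hρ g s
    rw [hg, MulAut.one_apply,
      show (MulAut.conjNormal (g : O) s : ↥W) = g * s * g⁻¹ from Subtype.ext rfl,
      QuotientGroup.mk_mul, QuotientGroup.mk_mul, QuotientGroup.mk_inv, eq_mul_inv_iff_mul_eq] at h
    exact h
  have hkc : Nat.card ↥(ρ.ker ⊓ W : Subgroup O) ≤ Nat.card ↥(Subgroup.center ↥W) := by
    refine Nat.card_le_card_of_injective
      (fun x => (⟨⟨x.1, x.2.2⟩, hker ⟨x.1, x.2.2⟩ x.2.1⟩ : ↥(Subgroup.center ↥W))) fun x y h => ?_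
    exact Subtype.ext (congrArg (fun z : ↥(Subgroup.center ↥W) => (z.1 : O)) h)
  have hsmall : Nat.card ↥ρ.ker ≤ 2 := by
    have h3 : W.relIndex ρ.ker ≤ W.index :=
      Nat.le_of_dvd (Nat.pos_of_ne_zero Subgroup.index_ne_zero_of_finite)
        (W.relIndex_dvd_index_of_normal ρ.ker)
    have h1 := (W.subgroupOf ρ.ker).card_mul_index
    have h4 := W.card_mul_index
    have h5 : Nat.card ↥(W.subgroupOf ρ.ker) = Nat.card ↥(ρ.ker ⊓ W : Subgroup O) := by
      rw [← Subgroup.card_map_of_injective ρ.ker.subtype_injective, Subgroup.subgroupOf_map_subtype,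
        inf_comm]
    rw [h5] at h1
    have h6 := (Subgroup.center ↥W).card_mul_index
    rw [show (Subgroup.center ↥W).index = Nat.card S from Nat.card_congr e.toEquiv] at h6
    have hpos : 0 < Nat.card ↥W := Nat.card_pos
    have h7 : Nat.card ↥ρ.ker * Nat.card ↥W ≤ Nat.card ↥(Subgroup.center ↥W) * Nat.card O := by
      calc Nat.card ↥ρ.ker * Nat.card ↥W
          = Nat.card ↥(ρ.ker ⊓ W : Subgroup O) * (W.relIndex ρ.ker * Nat.card ↥W) := by
            rw [← h1, Subgroup.relIndex]; ring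
        _ ≤ Nat.card ↥(Subgroup.center ↥W) * (W.index * Nat.card ↥W) :=
            Nat.mul_le_mul hkc (Nat.mul_le_mul_right _ h3)
        _ = _ := by rw [mul_comm W.index, h4]
    rw [hcard] at h7
    nlinarith
  refine ⟨(MulAut.congr e).toMonoidHom.comp ρ, (MulAut.congr e).injective.comp ?_⟩
  rw [← MonoidHom.ker_eq_bot_iff, Subgroup.eq_bot_iff_forall]
  intro x hx
  refine hO x (Subgroup.mem_center_iff.2 fun y => ?_)
  by_cases hx1 : x = 1
  · rw [hx1, one_mul, mul_one]
  · have hy : y * x * y⁻¹ ∈ ρ.ker := (MonoidHom.normal_ker ρ).conj_mem x hx y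
    have hy1 : y * x * y⁻¹ ≠ 1 := fun h => hx1 (by
      have := congrArg (fun t => y⁻¹ * t * y) h
      simpa [mul_assoc] using this)
    refine mul_inv_eq_iff_eq_mul.1 ?_
    by_contra hne
    have h3 : 3 ≤ Nat.card ↥ρ.ker := by
      have hinj : Function.Injective (![⟨1, one_mem _⟩, ⟨x, hx⟩, ⟨y * x * y⁻¹, hy⟩] :
          Fin 3 → ↥ρ.ker) := by
        intro i j h
        have h' := congrArg Subtype.val h
        fin_cases i <;> fin_cases j <;>
          first
            | rfl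
            | exact absurd h' hx1
            | exact absurd h'.symm hx1
            | exact absurd h' hy1
            | exact absurd h'.symm hy1
            | exact absurd h' hne
            | exact absurd h'.symm hne
      simpa using Nat.card_le_card_of_injective _ hinj
    omega

theorem nonempty_OSix_equiv {F : Type} [Field F] [Fintype F] (hF : Fintype.card F = 4) :
    Nonempty (OSix ≃* MulAut (Cfsg.PSU 4 F 2)) := by
  obtain ⟨e⟩ := S0303.result (F := ZMod 2) (K := F) (q := 2) (ZMod.card 2)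
    (by rw [hF]; norm_num) 1 1 aniso_two
  obtain ⟨u⟩ := nonempty_SU_equiv_PSU hF
  have hS : Subgroup.center (Cfsg.PSU 4 F 2) = ⊥ := by
    rw [Subgroup.eq_bot_iff_forall]
    intro x hx
    refine u.symm.injective ((Subgroup.mem_bot.1 (center_SU_four hF ▸ ?_)).trans (map_one _).symm)
    refine Subgroup.mem_center_iff.2 fun y => ?_
    obtain ⟨z, rfl⟩ := u.symm.surjective y
    rw [← map_mul, ← map_mul, Subgroup.mem_center_iff.1 hx z]
  have hcard : Nat.card OSix = 2 * Nat.card (Cfsg.PSU 4 F 2) := by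
    rw [card_OSix, ← Nat.card_congr u.toEquiv, card_SU_four hF]
  obtain ⟨f, hf⟩ := exists_embedding (Cfsg.Omega (ZMod 2) qSix) e hS hcard
    fun g hg => center_OSix hg
  haveI : Finite (MulAut (Cfsg.PSU 4 F 2)) :=
    Finite.of_injective (fun σ : MulAut (Cfsg.PSU 4 F 2) => (σ : Cfsg.PSU 4 F 2 → Cfsg.PSU 4 F 2))
      fun σ τ h => MulEquiv.ext fun x => congrFun h x
  exact ⟨MulEquiv.ofBijective f ⟨hf, (hf.bijective_of_nat_card_le (by
    rw [card_OSix]; exact card_aut_PSU_four_le hF)).2⟩⟩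

end Cfsg.Agent.H97.M22
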