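import Cfsg.Agent.H97.M22.PointStab

/-!
Diagonal and transporting elements of `SU 4` over the field of four elements, and the one
dimensionality of invariant alternating pairings on its module.
-/

set_option autoImplicit false
set_option linter.unusedSectionVars false

namespace Cfsg.Agent.H97.M22

open Matrix Cfsg
open Cfsg.Agent.H17.UPoints

variable {F : Type} [Field F] [Fintype F] (hF : Fintype.card F = 4)
include hF

theorem exists_diag (d : Fin 4 → F) (hd0 : ∀ t, d t ≠ 0) (hdet : ∏ t, d t = 1) :
    ∃ h : ↥(Cfsg.SU 4 F 2), ∀ (t : Fin 4) (c : F),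
      act h (Pi.single t c) = Pi.single t (d t * c) := by
  let g : ↥(Cfsg.GU 4 F 2) := H3.guDiag d fun i => by
    rw [pow_succ, pow_two]; exact cube hF (hd0 i)
  refine ⟨⟨⟨(g.1 : Matrix (Fin 4) (Fin 4) F), (Matrix.det_diagonal).trans hdet⟩,
    H3.mem_SU_iff.2 fun x y => H3.GU_preserves g x y⟩, fun t c => funext fun i => ?_⟩
  show (Matrix.diagonal d *ᵥ Pi.single t c) i = _
  rw [Matrix.mulVec_diagonal]
  rcases eq_or_ne i t with rfl | h
  · simp
  · simp [Pi.single_eq_of_ne h]

theorem exists_move_single (i : Fin 4) :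
    ∃ h : ↥(Cfsg.SU 4 F 2), ∀ c : F, act h (Pi.single i c) = Pi.single 0 c := by
  have hs : ∀ j : Fin 4, herm (Pi.single j (1 : F)) (Pi.single j 1) = 1 := fun j => by
    simp [hermForm, Pi.single_apply]
  have hn : ∀ j : Fin 4, (Pi.single j (1 : F) : Fin 4 → F) ≠ 0 := fun j h =>
    by have h' := congrFun h j; simp at h'
  obtain ⟨g, hg⟩ := H3.exists_GU_mulVec_eq (cardSq hF) (hn i) (hn 0) ((hs i).trans (hs 0).symm)
  set e := (g.1 : Matrix (Fin 4) (Fin 4) F).det with he
  have he3 : e ^ 3 = 1 := H3.det_GU (cardSq hF) g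
  have he0 : e ≠ 0 := fun h => by simp [h] at he3
  let d : Fin 4 → F := fun j => if j = 3 then e⁻¹ else 1
  let k : ↥(Cfsg.GU 4 F 2) := H3.guDiag d fun j => by
    by_cases h : j = 3 <;> simp [d, h, he3]
  have hdet : ((k * g).1 : Matrix (Fin 4) (Fin 4) F).det = 1 := by
    rw [Subgroup.coe_mul, Units.val_mul, Matrix.det_mul, ← he]
    show (Matrix.diagonal d).det * e = 1
    rw [Matrix.det_diagonal, Finset.prod_ite_eq']
    simp [he0]
  refine ⟨⟨⟨_, hdet⟩, H3.mem_SU_iff.2 fun x y => H3.GU_preserves (k * g) x y⟩, fun c => ?_⟩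
  have hc : (Pi.single i c : Fin 4 → F) = c • Pi.single i 1 := by
    rw [← Pi.single_smul', smul_eq_mul, mul_one]
  show ((k * g).1 : Matrix (Fin 4) (Fin 4) F) *ᵥ Pi.single i c = _
  rw [hc, Matrix.mulVec_smul, Subgroup.coe_mul, Units.val_mul, ← Matrix.mulVec_mulVec, hg]
  funext j
  show c * (Matrix.diagonal d *ᵥ Pi.single (0 : Fin 4) (1 : F)) j = _
  rw [Matrix.mulVec_diagonal]
  rcases eq_or_ne j (0 : Fin 4) with rfl | h
  · simp [d]
  · simp [Pi.single_eq_of_ne h]

/-- An invariant alternating pairing on the module takes two values. -/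
theorem pairing_values {B : Type*} [Group B] {β : (Fin 4 → F) → (Fin 4 → F) → B}
    (hl : ∀ m n p, β (m + n) p = β m p * β n p) (hr : ∀ m n p, β m (n + p) = β m n * β m p)
    (halt : ∀ m, β m m = 1) (hsq : ∀ m n, β m n * β m n = 1)
    (hinv : ∀ (h : ↥(Cfsg.SU 4 F 2)) m n, β (act h m) (act h n) = β m n) :
    ∃ z : B, ∀ m n, β m n = 1 ∨ β m n = z := by
  classical
  obtain ⟨l, hl0, hl1⟩ : ∃ l : F, l ≠ 0 ∧ l ≠ 1 := by
    by_contra hne
    push Not at hne
    have : Fintype.card F ≤ 2 := by
      calc Fintype.card F = (Finset.univ : Finset F).card := rfl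
        _ ≤ ({0, 1} : Finset F).card := Finset.card_le_card fun x _ => by
            rcases eq_or_ne x 0 with h | h
            · simp [h]
            · simp [hne x h]
        _ ≤ 2 := Finset.card_le_two
    omega
  have hrel : l + l ^ 2 = 1 := by
    have h3 : (l - 1) * (1 + l + l ^ 2) = 0 := by linear_combination cube hF hl0
    linear_combination (mul_eq_zero.1 h3).resolve_left (sub_ne_zero.2 hl1) - add_self hF (1 : F)
  have hall : ∀ x : F, x = 0 ∨ x = 1 ∨ x = l ∨ x = l ^ 2 := fun x => by
    rcases eq_or_ne x 0 with h | h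
    · exact Or.inl h
    have h3 : (x - 1) * ((x - l) * (x - l ^ 2)) = 0 := by
      linear_combination cube hF h + (l * x - x ^ 2) * (hrel + add_self hF (1 : F)) - cube hF hl0
    rcases mul_eq_zero.1 h3 with h | h
    · exact Or.inr (Or.inl (sub_eq_zero.1 h))
    rcases mul_eq_zero.1 h with h | h
    · exact Or.inr (Or.inr (Or.inl (sub_eq_zero.1 h)))
    · exact Or.inr (Or.inr (Or.inr (sub_eq_zero.1 h)))
  have hl3 : l * l * l = 1 := cube hF hl0
  have h0l : ∀ p, β 0 p = 1 := fun p => by
    have h := hl 0 0 p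
    rwa [add_zero, left_eq_mul] at h
  have h0r : ∀ p, β p 0 = 1 := fun p => by
    have h := hr p 0 0
    rwa [add_zero, left_eq_mul] at h
  have hsymm : ∀ m n, β n m = β m n := fun m n => by
    have h := halt (m + n)
    rw [hl, hr, hr, halt, halt, one_mul, mul_one] at h
    calc β n m = β m n * β m n * β n m := by rw [hsq, one_mul]
      _ = β m n := by rw [mul_assoc, h, mul_one]
  -- the cross terms vanish
  have cross : ∀ (i j : Fin 4), i ≠ j → ∀ a b : F, β (Pi.single i a) (Pi.single j b) = 1 := by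
    intro i j hij
    obtain ⟨g₁, h1⟩ := exists_diag hF (fun t => if t = i ∨ t = j then l else l ^ 2)
      (fun t => by split_ifs <;> simp [hl0]) (by
        fin_cases i <;> fin_cases j <;> simp_all [Fin.prod_univ_four] <;>
          linear_combination (l * l * l + 1) * hl3)
    obtain ⟨g₂, h2⟩ := exists_diag hF (fun t => if t = i then l else if t = j then l ^ 2 else 1)
      (fun t => by split_ifs <;> simp [hl0]) (by
        fin_cases i <;> fin_cases j <;> simp_all [Fin.prod_univ_four] <;>
          linear_combination hl3)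
    have key : ∀ a b : F, β (Pi.single i (l * a)) (Pi.single j b) = 1 := by
      intro a b
      have e1 : β (Pi.single i (l * a)) (Pi.single j (l * b)) =
          β (Pi.single i a) (Pi.single j b) := by
        have := hinv g₁ (Pi.single i a) (Pi.single j b)
        rwa [h1, h1, if_pos (Or.inl rfl), if_pos (Or.inr rfl)] at this
      have e2 : β (Pi.single i (l * a)) (Pi.single j (l ^ 2 * b)) =
          β (Pi.single i a) (Pi.single j b) := by
        have := hinv g₂ (Pi.single i a) (Pi.single j b)
        rwa [h2, h2, if_pos rfl, if_neg (Ne.symm hij), if_pos rfl] at this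
      calc β (Pi.single i (l * a)) (Pi.single j b)
          = β (Pi.single i (l * a)) (Pi.single j (l * b) + Pi.single j (l ^ 2 * b)) := by
            rw [← Pi.single_add, ← add_mul, hrel, one_mul]
        _ = 1 := by rw [hr, e1, e2, hsq]
    intro a b
    have := key (l ^ 2 * a) b
    rwa [← mul_assoc, show l * l ^ 2 = 1 by rw [pow_two, ← mul_assoc]; exact hl3, one_mul] at this
  refine ⟨β (Pi.single (0 : Fin 4) 1) (Pi.single 0 l), ?_⟩
  set z := β (Pi.single (0 : Fin 4) 1) (Pi.single 0 l) with hz
  have hmul : ∀ {x y : B}, (x = 1 ∨ x = z) → (y = 1 ∨ y = z) → (x * y = 1 ∨ x * y = z) := by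
    rintro x y (rfl | rfl) (rfl | rfl)
    · simp
    · simp
    · simp
    · exact Or.inl (hsq _ _)
  have hdiag : ∀ (i : Fin 4) (a b : F),
      β (Pi.single i a) (Pi.single i b) = 1 ∨ β (Pi.single i a) (Pi.single i b) = z := by
    intro i a b
    obtain ⟨g, hg⟩ := exists_move_single hF i
    rw [← hinv g, hg, hg]
    have hl2 : (Pi.single (0 : Fin 4) (l ^ 2) : Fin 4 → F) = Pi.single 0 1 + Pi.single 0 l := by
      rw [← Pi.single_add]
      congr 1
      linear_combination hrel - add_self hF l
    have e1 : β (Pi.single (0 : Fin 4) 1) (Pi.single 0 (l ^ 2)) = z := by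
      rw [hl2, hr, halt, one_mul]
    have e2 : β (Pi.single (0 : Fin 4) l) (Pi.single 0 (l ^ 2)) = z := by
      rw [hl2, hr, halt, mul_one, hsymm]
    rcases hall a with rfl | rfl | rfl | rfl <;> rcases hall b with rfl | rfl | rfl | rfl <;>
      (try simp only [Pi.single_zero, h0l, h0r, halt, true_or]) <;>
      first
        | exact Or.inr rfl
        | exact Or.inr e1
        | exact Or.inr e2
        | exact Or.inr (hsymm _ _)
        | exact Or.inr ((hsymm _ _).trans e1)
        | exact Or.inr ((hsymm _ _).trans e2)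
  have hpair : ∀ (i j : Fin 4) (a b : F),
      β (Pi.single i a) (Pi.single j b) = 1 ∨ β (Pi.single i a) (Pi.single j b) = z := by
    intro i j a b
    rcases eq_or_ne i j with rfl | h
    · exact hdiag i a b
    · exact Or.inl (cross i j h a b)
  intro m n
  have hm : m = ∑ i, Pi.single i (m i) := (Finset.univ_sum_single m).symm
  have hn : n = ∑ i, Pi.single i (n i) := (Finset.univ_sum_single n).symm
  rw [hm, hn, Fin.sum_univ_four, Fin.sum_univ_four]
  simp only [hl, hr]
  refine hmul (hmul (hmul ?_ ?_) ?_) ?_ <;> refine hmul (hmul (hmul ?_ ?_) ?_) ?_ <;> exact hpair _ _ _ _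

end Cfsg.Agent.H97.M22
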