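import Cfsg.Agent.H97.M22.PSUStab

/-!
The structure of the centraliser of a transvection in `PSU 6` over the field of four elements.
-/

set_option autoImplicit false
set_option linter.unusedSectionVars false

namespace Cfsg.Agent.H97.M22

open Matrix Cfsg
open Cfsg.Agent.H17.UPoints

variable {F : Type} [Field F] [Fintype F] (hF : Fintype.card F = 4)
include hF

/-- The kernel part of the point stabiliser in `PSU 6`. -/
def radP : Subgroup (Cfsg.PSU 6 F 2) := (rad F hF).map mkP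

theorem mem_map_pointStab {x : Cfsg.PSU 6 F 2} (hx : x ∈ (pointStab F).map mkP) :
    ∃ g : ↥(pointStab F), mkP g.1 = x := by
  obtain ⟨g, hg, rfl⟩ := Subgroup.mem_map.1 hx
  exact ⟨⟨g, hg⟩, rfl⟩

theorem piFour_congr {g k : ↥(pointStab F)} (h : mkP g.1 = mkP k.1) :
    piFour hF g = piFour hF k := by
  have hz : g⁻¹ * k ∈ (piFour hF).ker :=
    center_le_ker hF (Subgroup.mem_subgroupOf.2 ((mkP_eq_iff hF).1 h))
  rw [MonoidHom.mem_ker, map_mul, map_inv, inv_mul_eq_one] at hz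
  exact hz

/-- The map of the centraliser of the transvection onto `SU 4`. -/
noncomputable def piP : ↥((pointStab F).map mkP) →* ↥(Cfsg.SU 4 F 2) :=
  MonoidHom.mk' (fun x => piFour hF (mem_map_pointStab hF x.2).choose) fun x y => by
    rw [← map_mul]
    refine piFour_congr hF ?_
    rw [(mem_map_pointStab hF (x * y).2).choose_spec, Subgroup.coe_mul, Subgroup.coe_mul, map_mul,
      (mem_map_pointStab hF x.2).choose_spec, (mem_map_pointStab hF y.2).choose_spec]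

theorem piP_mk (g : ↥(pointStab F)) :
    piP hF ⟨mkP g.1, Subgroup.mem_map_of_mem _ g.2⟩ = piFour hF g :=
  piFour_congr hF (mem_map_pointStab hF (Subgroup.mem_map_of_mem mkP g.2)).choose_spec

theorem blkP_mem (h : ↥(Cfsg.SU 4 F 2)) : mkP (blk h) ∈ (pointStab F).map mkP :=
  Subgroup.mem_map_of_mem _ (blk_mem hF h)

theorem piP_blk (h : ↥(Cfsg.SU 4 F 2)) : piP hF ⟨mkP (blk h), blkP_mem hF h⟩ = h :=
  (piP_mk hF ⟨blk h, blk_mem hF h⟩).trans (piFour_blk hF h)

theorem piP_surjective : Function.Surjective (piP hF) := fun h => ⟨_, piP_blk hF h⟩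

theorem radP_le : radP hF ≤ (pointStab F).map mkP := Subgroup.map_mono (rad_le_pointStab hF)

theorem piP_eq_one_iff (x : ↥((pointStab F).map mkP)) : piP hF x = 1 ↔ x.1 ∈ radP hF := by
  obtain ⟨x, hx⟩ := x
  obtain ⟨g, rfl⟩ := mem_map_pointStab hF hx
  rw [piP_mk hF g]
  constructor
  · intro h
    obtain ⟨z, hz, r, hr, he⟩ := ker_decomp hF (MonoidHom.mem_ker.2 h)
    refine Subgroup.mem_map.2 ⟨r, hr, Eq.symm ?_⟩
    calc mkP g.1 = mkP (z * r) := congrArg mkP he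
      _ = mkP r := by
        rw [map_mul, show mkP z = 1 from (QuotientGroup.eq_one_iff z).2 hz, one_mul]
  · intro h
    obtain ⟨r, hr, he⟩ := Subgroup.mem_map.1 h
    rw [← piFour_congr hF (g := ⟨r, rad_le_pointStab hF hr⟩) he]
    exact MonoidHom.mem_ker.1 (rad_le_ker hF (Subgroup.mem_subgroupOf.2 hr))

theorem rad_mk_inj {r s : ↥(Cfsg.SU 6 F 2)} (hr : r ∈ rad F hF) (hs : s ∈ rad F hF)
    (h : mkP r = mkP s) : r = s :=
  inv_mul_eq_one.1 (rad_inter_center hF (mul_mem (inv_mem hr) hs) ((mkP_eq_iff hF).1 h))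

theorem card_radP : Nat.card ↥(radP hF) = 512 := by
  rw [← card_rad hF]
  exact (Nat.card_congr (Equiv.ofBijective
    (fun r : ↥(rad F hF) => (⟨mkP r.1, Subgroup.mem_map_of_mem _ r.2⟩ : ↥(radP hF)))
    ⟨fun r s h => Subtype.ext (rad_mk_inj hF r.2 s.2 (congrArg Subtype.val h)), fun x => by
      obtain ⟨r, hr, he⟩ := Subgroup.mem_map.1 x.2
      exact ⟨⟨r, hr⟩, Subtype.ext he⟩⟩)).symm

open Classical in
/-- The module vector of an element of the kernel part. -/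
noncomputable def muP (x : Cfsg.PSU 6 F 2) : Fin 4 → F :=
  if h : x ∈ radP hF then mu (Subgroup.mem_map.1 h).choose else 0

theorem muP_mk {r : ↥(Cfsg.SU 6 F 2)} (hr : r ∈ rad F hF) : muP hF (mkP r) = mu r := by
  classical
  have h : mkP r ∈ radP hF := Subgroup.mem_map_of_mem _ hr
  rw [muP, dif_pos h]
  exact congrArg mu (rad_mk_inj hF (Subgroup.mem_map.1 h).choose_spec.1 hr
    (Subgroup.mem_map.1 h).choose_spec.2)

theorem muP_mul {x y : Cfsg.PSU 6 F 2} (hx : x ∈ radP hF) (hy : y ∈ radP hF) :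
    muP hF (x * y) = muP hF x + muP hF y := by
  obtain ⟨r, hr, rfl⟩ := Subgroup.mem_map.1 hx
  obtain ⟨s, hs, rfl⟩ := Subgroup.mem_map.1 hy
  rw [← map_mul, muP_mk hF (mul_mem hr hs), muP_mk hF hr, muP_mk hF hs, mu_mul hF hr hs]

theorem exists_muP (m : Fin 4 → F) : ∃ x ∈ radP hF, muP hF x = m := by
  classical
  obtain ⟨r, hr, hm⟩ := exists_mu hF m
  exact ⟨mkP r, Subgroup.mem_map_of_mem _ hr, by rw [muP_mk hF hr, hm]⟩

theorem muP_conj (h : ↥(Cfsg.SU 4 F 2)) {x : Cfsg.PSU 6 F 2} (hx : x ∈ radP hF) :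
    mkP (blk h) * x * (mkP (blk h))⁻¹ ∈ radP hF ∧
      muP hF (mkP (blk h) * x * (mkP (blk h))⁻¹) = act h (muP hF x) := by
  obtain ⟨r, hr, rfl⟩ := Subgroup.mem_map.1 hx
  obtain ⟨h1, h2⟩ := mu_conj hF h hr
  rw [← map_inv, ← map_mul, ← map_mul, muP_mk hF h1, muP_mk hF hr]
  exact ⟨Subgroup.mem_map_of_mem _ h1, h2⟩

theorem radP_not_commute {x y : Cfsg.PSU 6 F 2} (hx : x ∈ radP hF) (hy : y ∈ radP hF)
    (h : herm (muP hF x) (muP hF y) ≠ herm (muP hF y) (muP hF x)) : x * y ≠ y * x := by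
  classical
  obtain ⟨r, hr, rfl⟩ := Subgroup.mem_map.1 hx
  obtain ⟨s, hs, rfl⟩ := Subgroup.mem_map.1 hy
  rw [muP_mk hF hr, muP_mk hF hs] at h
  rw [← map_mul, ← map_mul]
  exact fun he => rad_not_commute hF hr hs h (rad_mk_inj hF (mul_mem hr hs) (mul_mem hs hr) he)

variable [DecidableEq F]

theorem timg_vv_mem_radP : timg hF vv ∈ radP hF := Subgroup.mem_map_of_mem _ (trv_mem_rad hF)

theorem muP_eq_zero_iff {x : Cfsg.PSU 6 F 2} (hx : x ∈ radP hF) :
    muP hF x = 0 ↔ x = 1 ∨ x = timg hF vv := by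
  obtain ⟨r, hr, rfl⟩ := Subgroup.mem_map.1 hx
  rw [muP_mk hF hr, mu_eq_zero_iff hF hr]
  constructor
  · rintro (rfl | rfl)
    · exact Or.inl (map_one _)
    · exact Or.inr rfl
  · rintro (h | h)
    · exact Or.inl (rad_mk_inj hF hr (one_mem _) (h.trans (map_one _).symm))
    · exact Or.inr (rad_mk_inj hF hr (trv_mem_rad hF) h)

theorem radP_sq {x : Cfsg.PSU 6 F 2} (hx : x ∈ radP hF) :
    x * x = 1 ∨ x * x = timg hF vv := by
  refine (muP_eq_zero_iff hF (mul_mem hx hx)).1 ?_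
  rw [muP_mul hF hx hx]
  exact funext fun i => add_self hF _

theorem muP_one : muP hF (1 : Cfsg.PSU 6 F 2) = 0 :=
  (muP_eq_zero_iff hF (one_mem _)).2 (Or.inl rfl)

theorem muP_inv {x : Cfsg.PSU 6 F 2} (hx : x ∈ radP hF) : muP hF x⁻¹ = muP hF x := by
  have h := muP_mul hF hx (inv_mem hx)
  rw [mul_inv_cancel, muP_one] at h
  funext i
  have hi : muP hF x i + muP hF x⁻¹ i = 0 := (congrFun h i).symm
  calc muP hF x⁻¹ i = muP hF x i + muP hF x i + muP hF x⁻¹ i := by rw [add_self hF, zero_add]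
    _ = muP hF x i := by rw [add_assoc, hi, add_zero]

theorem radP_comm {x y : Cfsg.PSU 6 F 2} (hx : x ∈ radP hF) (hy : y ∈ radP hF) :
    x * y * x⁻¹ * y⁻¹ = 1 ∨ x * y * x⁻¹ * y⁻¹ = timg hF vv := by
  refine (muP_eq_zero_iff hF (mul_mem (mul_mem (mul_mem hx hy) (inv_mem hx)) (inv_mem hy))).1 ?_
  rw [muP_mul hF (mul_mem (mul_mem hx hy) (inv_mem hx)) (inv_mem hy),
    muP_mul hF (mul_mem hx hy) (inv_mem hx), muP_mul hF hx hy, muP_inv hF hx, muP_inv hF hy]
  funext i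
  simp only [Pi.add_apply, Pi.zero_apply]
  linear_combination add_self hF (muP hF x i) + add_self hF (muP hF y i)

theorem radP_conj_timg {x : Cfsg.PSU 6 F 2} (hx : x ∈ radP hF) (c : F) (w : Fin 4 → F)
    (hw : herm w w = 0) :
    x * timg hF (pt c c w) * x⁻¹ =
      timg hF (pt (c + herm w (muP hF x)) (c + herm w (muP hF x)) w) := by
  obtain ⟨r, hr, rfl⟩ := Subgroup.mem_map.1 hx
  rw [timg_conj hF r (by rw [herm_pt_perp hF]; exact hw), muP_mk hF hr, rad_act_pt hF hr]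

theorem blk_conj_timg (h : ↥(Cfsg.SU 4 F 2)) (c : F) (w : Fin 4 → F) (hw : herm w w = 0) :
    mkP (blk h) * timg hF (pt c c w) * (mkP (blk h))⁻¹ = timg hF (pt c c (act h w)) := by
  rw [timg_conj hF _ (by rw [herm_pt_perp hF]; exact hw), blk_act hF]

end Cfsg.Agent.H97.M22
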