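import Cfsg.Agent.H97.M22.PSUPi
import Cfsg.Agent.H97.M22.Lines

/-!
The action of the point stabiliser on the points of the standard line.
-/

set_option autoImplicit false
set_option linter.unusedSectionVars false

namespace Cfsg.Agent.H97.M22

open Matrix Cfsg
open Cfsg.Agent.H17.UPoints

variable {F : Type} [Field F] [Fintype F] [DecidableEq F] (hF : Fintype.card F = 4)
include hF

theorem wz_iso : herm (wz : Fin 4 → F) wz = 0 := by
  simpa [hermForm, Fin.sum_univ_four, wz] using add_self hF 1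

theorem timg_mem_map_of_perp {u : Fin 6 → F} (hu : herm u u = 0) (huv : herm u vv = 0) :
    timg hF u ∈ (pointStab F).map mkP :=
  Subgroup.mem_map_of_mem _ ((mem_pointStab_iff hF).2 ⟨1, by
    rw [trv_act hF hu, (herm_zero_comm hF).1 huv, zero_smul, add_zero, one_smul]⟩)

theorem piP_timg {c : F} {w : Fin 4 → F} (hw : herm w w = 0)
    (h : timg hF (pt c c w) ∈ (pointStab F).map mkP) :
    piP hF ⟨timg hF (pt c c w), h⟩ = trv hF w := by
  have hu : herm (pt c c w) (pt c c w) = 0 := by rw [herm_pt_perp hF]; exact hw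
  obtain ⟨g, hgd⟩ : ∃ g : ↥(pointStab F), g = ⟨trv hF (pt c c w), (mem_pointStab_iff hF).2 ⟨1, by
    rw [trv_act hF hu, (herm_zero_comm hF).1 (pt_perp hF c w), zero_smul, add_zero, one_smul]⟩⟩ :=
    ⟨_, rfl⟩
  have hg1 : g.1 = trv hF (pt c c w) := by rw [hgd]
  have e : (⟨timg hF (pt c c w), h⟩ : ↥((pointStab F).map mkP)) =
      ⟨mkP g.1, Subgroup.mem_map_of_mem _ g.2⟩ := Subtype.ext (congrArg mkP hg1.symm)
  rw [e, piP_mk]
  have hh : ∀ x, hmap g.1 x = act (trv hF w) x := fun x => by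
    show tl (act g.1 (pt 0 0 x)) = _
    rw [hg1, trv_act hF hu, trv_act hF hw, herm_pt_perp hF, smul_pt, pt_add, tl_pt]
  have hb : blockHom hF g = ((trv hF w : Matrix.SpecialLinearGroup (Fin 4) F) :
      Matrix (Fin 4) (Fin 4) F) := Matrix.ext_of_mulVec_single fun i => by
    rw [blockHom_mulVec, hh]
  refine ext_act fun x => ?_
  rw [piFour_act, hh, hb, (trv hF w : Matrix.SpecialLinearGroup (Fin 4) F).2, inv_one, one_smul]

/-- A transvection at a point of the perp with the image of the standard line's transvection. -/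
theorem exists_lp_of_pi {u : Fin 6 → F} (hu : herm u u = 0) (hu0 : u ≠ 0) (huv : herm u vv = 0)
    (h : timg hF u ∈ (pointStab F).map mkP)
    (hpi : piP hF ⟨timg hF u, h⟩ = trv hF wz) : ∃ c : F, timg hF u = timg hF (lp c) := by
  obtain ⟨e, t, rfl⟩ : ∃ (e : F) (t : Fin 4 → F), u = pt e e t := ⟨u 0, tl u, perp_vv hF huv⟩
  have ht : herm t t = 0 := by rwa [herm_pt_perp hF] at hu
  rw [piP_timg hF ht h] at hpi
  have ht0 : t ≠ 0 := by
    rintro rfl
    refine trv_ne_one hF (wz_iso hF) wz_ne (hpi.symm.trans (ext_act fun x => ?_))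
    rw [trv_act hF ht, act_one, smul_zero, add_zero]
  obtain ⟨k, hk, rfl⟩ := trv_eq hF ht (wz_iso hF) ht0 hpi
  refine ⟨k⁻¹ * e, ?_⟩
  rw [show pt e e (k • wz) = k • lp (k⁻¹ * e) by rw [lp, smul_pt, mul_inv_cancel_left₀ hk],
    timg_smul hF hk (lp_iso hF _)]

theorem lp_timg_inj {c c' : F} (h : timg hF (lp c) = timg hF (lp c')) : c = c' := by
  obtain ⟨a, -, ha⟩ := timg_eq hF (lp_iso hF c) (lp_iso hF c') (lp_ne c) h
  rw [lp, lp, smul_pt] at ha
  obtain ⟨hc, -, hw⟩ := pt_inj ha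
  have ha1 : a = 1 := by
    have := congrFun hw 0
    simpa [wz] using this.symm
  rw [hc, ha1, one_mul]

/-- Scalings along the standard line. -/
theorem exists_scale {r : F} (hr : r ≠ 0) : ∃ h : ↥(Cfsg.SU 4 F 2), act h wz = r • wz := by
  have hr3 : r ^ (2 + 1) = 1 := by
    rw [pow_succ, pow_two]; exact cube hF hr
  let g : ↥(Cfsg.GU 4 F 2) := H3.guDiag ![r, r, r, 1] fun i => by fin_cases i <;> simp [hr3]
  have hd : (g.1 : Matrix (Fin 4) (Fin 4) F).det = 1 := by
    show (Matrix.diagonal ![r, r, r, 1]).det = 1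
    rw [Matrix.det_diagonal, Fin.prod_univ_four]
    simpa using cube hF hr
  refine ⟨⟨⟨_, hd⟩, H3.mem_SU_iff.2 fun x y => H3.GU_preserves g x y⟩, ?_⟩
  funext i
  show ((Matrix.diagonal ![r, r, r, 1]) *ᵥ wz) i = _
  rw [Matrix.mulVec_diagonal]
  fin_cases i <;> simp [wz]

theorem blk_scale {r : F} (hr : r ≠ 0) {h : ↥(Cfsg.SU 4 F 2)} (hh : act h wz = r • wz) (c : F) :
    mkP (blk h) * timg hF (lp c) * (mkP (blk h))⁻¹ = timg hF (lp (r ^ 2 * c)) := by
  rw [lp, blk_conj_timg hF h c wz (wz_iso hF), hh,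
    show pt c c (r • wz) = r • lp (r ^ 2 * c) by
      rw [lp, smul_pt, ← mul_assoc, show r * r ^ 2 = 1 by rw [pow_two, ← mul_assoc]; exact cube hF hr,
        one_mul],
    timg_smul hF hr (lp_iso hF _)]

end Cfsg.Agent.H97.M22
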